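import Cfsg.Agent.Lib.J3Unique.Cert.Main.Steps1
import Cfsg.Agent.Lib.J3Unique.Cert.Main.Steps2
import Cfsg.Agent.Lib.J3Unique.Cert.Main.Steps3
import Cfsg.Agent.Lib.J3Unique.Cert.Main.Steps4
import Cfsg.Agent.Lib.J3Unique.Cert.Main.Steps5
import Cfsg.Agent.Lib.J3Unique.Cert.Main.Steps6
import Cfsg.Agent.Lib.J3Unique.Cert.Main.Steps7
import Cfsg.Agent.Lib.J3Unique.Cert.Main.Steps8
import Cfsg.Agent.Lib.J3Unique.Cert.Main.Steps9
import Cfsg.Agent.Lib.J3Unique.Cert.Main.Steps10
import Cfsg.Agent.Lib.J3Unique.Cert.Main.Steps11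
import Cfsg.Agent.Lib.J3Unique.Cert.Main.Steps12
import Cfsg.Agent.Lib.J3Unique.Cert.Main.Steps13
import Cfsg.Agent.Lib.J3Unique.Cert.Main.Steps14
import Cfsg.Agent.Lib.J3Unique.Cert.Main.Steps15
import Cfsg.Agent.Lib.J3Unique.Cert.Main.Steps16
import Cfsg.Agent.Lib.J3Unique.Cert.Main.Defs
import Cfsg.Agent.Lib.J3Unique.Cert.Main.Final1
import Cfsg.Agent.Lib.J3Unique.Cert.Main.Final2
import Cfsg.Agent.Lib.J3Unique.Cert.Main.Final3
import Cfsg.Agent.Lib.J3Unique.Cert.Main.Final4
import Cfsg.Agent.Lib.J3Unique.Cert.Main.Final5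
import Cfsg.Agent.Lib.J3Unique.Cert.Main.Final6
import Cfsg.Agent.Lib.J3Unique.Cert.Main.Final7

/-! Generated coset-enumeration certificate, case Main: 52326 cosets. -/

set_option autoImplicit false
set_option maxRecDepth 20000
set_option linter.all false
set_option Elab.async false

namespace CfsgLib.J3Unique.Cert.Main

open CfsgLib.SporRecognition.CosetCert

theorem covers : Covers (step inv fact rule 30 34) 67693 226581 :=
  covers1.trans
  (covers2.trans
  (covers3.trans
  (covers4.trans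
  (covers5.trans
  (covers6.trans
  (covers7.trans
  (covers8.trans
  (covers9.trans
  (covers10.trans
  (covers11.trans
  (covers12.trans
  (covers13.trans
  (covers14.trans
  (covers15.trans
  (covers16)))))))))))))))

variable {M X : Type*} [Group M] [MulAction M X]

theorem sect (f : Fin 5 → M) (x0 : X) (hW : ∀ w ∈ (allW [rdW 0, g1W 4 0, g2W 5 0]), evalW f w = 1)
    (hWH : ∀ w ∈ subW, evalW f w • x0 = x0) :
    ∃ s : Nat → X, s 0 = x0 ∧
      ∀ a : Fin 5, ∀ u, u < 52326 → ∃ u', u' < 52326 ∧ f a • s u = s u' := by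
  obtain ⟨s, hs0, hs⟩ := exists_section f x0 lets (allW [rdW 0, g1W 4 0, g2W 5 0]) subW hW hWH data rtriv rroot
    (by decide +kernel) (by decide +kernel) 30 34 rfl rfl
    (fun k hk => allBelow_spec defs_ok k hk) covers (by decide +kernel)
    (by
      intro i hi u hu
      have hi' : i < 7 := hi
      interval_cases i
      · exact allBelow_spec final1 u hu
      · exact allBelow_spec final2 u hu
      · exact allBelow_spec final3 u hu
      · exact allBelow_spec final4 u hu
      · exact allBelow_spec final5 u hu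
      · exact allBelow_spec final6 u hu
      · exact allBelow_spec final7 u hu
      )
  refine ⟨s, hs0, fun a u hu => ?_⟩
  fin_cases a
  · exact ⟨_, (hs 0 (by decide) u hu).1, by simpa [lets, evalW_eq_prod] using (hs 0 (by decide) u hu).2⟩
  · exact ⟨_, (hs 1 (by decide) u hu).1, by simpa [lets, evalW_eq_prod] using (hs 1 (by decide) u hu).2⟩
  · exact ⟨_, (hs 3 (by decide) u hu).1, by simpa [lets, evalW_eq_prod] using (hs 3 (by decide) u hu).2⟩
  · exact ⟨_, (hs 5 (by decide) u hu).1, by simpa [lets, evalW_eq_prod] using (hs 5 (by decide) u hu).2⟩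
  · exact ⟨_, (hs 6 (by decide) u hu).1, by simpa [lets, evalW_eq_prod] using (hs 6 (by decide) u hu).2⟩

end CfsgLib.J3Unique.Cert.Main
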